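import Cfsg.Agent.Lib.Helper35.RuP4060.PChk0

namespace Cfsg.Agent.Lib.Helper35.RuP4060

open Cfsg.Agent.Lib.Helper35

theorem hsub : allBelow (fixAll sl) 1 = true := by decide +kernel

noncomputable def permData : PermData PresRuP.cc.C PresRuP.cc.inv PresRuP.R S 4059 where
  pt := pt
  hinvC := PresRuP.hinvC
  hinv2 := PresRuP.hinv2
  hinvE := PresRuP.hinvE
  hchk := by
    intro c hc
    have hc' : c < 9 := hc
    interval_cases c
    exacts [c0u0, c1u0, c2u0, c3u0, c4u0, c5u0, c6u0, c7u0, c8u0]
  hrel := fix_of_leaves' rl 4060 ru21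
  hsub := fun b hb => fix_of_leaves sl 1 hsub b hb 0 (by decide)
  hRC := PresRuP.hRC
  hSC := by decide +kernel
  tp := tp
  cK := 16
  htree := tu0


noncomputable def orbData : OrbData permData where
  sl := sl
  hsl := rfl
  ot := ot
  db := 4
  rep := rep
  hchk := allBelow_of_forall _ _ ou0

theorem ocnt0 : countBelow (fun j => Nat.beq (orbData.lab j) 0) 4060 = 1 := l0n0
theorem orep0 : orbData.lab (orbData.rep 0) = 0 := by decide +kernel
theorem ocnt1 : countBelow (fun j => Nat.beq (orbData.lab j) 1) 4060 = 1755 := l1n0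
theorem orep1 : orbData.lab (orbData.rep 1) = 1 := by decide +kernel
theorem ocnt2 : countBelow (fun j => Nat.beq (orbData.lab j) 2) 4060 = 2304 := l2n0
theorem orep2 : orbData.lab (orbData.rep 2) = 2 := by decide +kernel
end Cfsg.Agent.Lib.Helper35.RuP4060
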